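import Cfsg.Agent.H94.LiftBaer
import Cfsg.Agent.H562.PQR.Iface
import Cfsg.Agent.Lib.NormalElementary
import Cfsg.Agent.Lib.MinNormal

/-!
# Frattini lifting of triples of `s'`-elements (helper94, for S3988)

`lift_of_clift` : let `s` be an odd prime, `S` a perfect group generated by `x`, `y`, `z` of orders prime to `s`
with `x y z = 1`. If the triple lifts to the perfect central extensions of `S` by `s`-groups (`CLift`), then it
lifts to all extensions of `S` by an `s`-group contained in the Frattini subgroup.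
-/

set_option autoImplicit false
set_option linter.unusedSectionVars false

open scoped commutatorElement

namespace Cfsg.Agent.H94.Lift

universe u v

section Core

variable {V : Type*} [Group V] {X : Type*} [Group X] (ρ : X →* MulAut V)

/-- `a (ρ g a)⁻¹` -/
def dd (g : X) (a : V) : V := a * (ρ g a)⁻¹

theorem dd_mul (hV : ∀ a b : V, a * b = b * a) (g : X) (a b : V) : dd ρ g (a * b) = dd ρ g a * dd ρ g b := by
  unfold dd
  rw [map_mul, mul_inv_rev, mul_assoc a b, ← mul_assoc b, hV (b * (ρ g b)⁻¹), ← mul_assoc a]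

theorem dd_one (g : X) : dd ρ g (1 : V) = 1 := by
  unfold dd
  rw [map_one, inv_one, mul_one]

theorem dd_inv (hV : ∀ a b : V, a * b = b * a) (g : X) (a : V) : dd ρ g a⁻¹ = (dd ρ g a)⁻¹ := by
  rw [eq_inv_iff_mul_eq_one, ← dd_mul ρ hV, inv_mul_cancel, dd_one]

theorem six {V : Type*} [Group V] (hV : ∀ a b : V, a * b = b * a) (a b c d e f : V) :
    (a * d) * (b * e) * (c * f) = (a * b * c) * (d * e * f) := by
  have h1 : (a * d) * (b * e) = (a * b) * (d * e) := by
    rw [mul_assoc a d, ← mul_assoc d b, hV d b, mul_assoc b d, ← mul_assoc a b]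
  rw [h1, mul_assoc (a * b), ← mul_assoc (d * e) c, hV (d * e) c, mul_assoc c, ← mul_assoc (a * b)]

/-- all elements of a coprime-like module are products of three `dd`s -/
theorem core_comm (hV : ∀ a b : V, a * b = b * a) {x y z : X}
    (hgen : Subgroup.closure ({x, y, z} : Set X) = ⊤)
    (hT : ∀ T : Subgroup V, (∀ (g : X) (v : V), dd ρ g v ∈ T) → T = ⊤) (v : V) :
    ∃ a b c : V, v = dd ρ x a * ρ x (dd ρ y b) * ρ (x * y) (dd ρ z c) := by
  let T : Subgroup V :=
    { carrier := {v | ∃ a b c : V, v = dd ρ x a * ρ x (dd ρ y b) * ρ (x * y) (dd ρ z c)}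
      one_mem' := ⟨1, 1, 1, by rw [dd_one, dd_one, dd_one, map_one, map_one, mul_one, mul_one]⟩
      mul_mem' := by
        rintro _ _ ⟨a, b, c, rfl⟩ ⟨a', b', c', rfl⟩
        refine ⟨a * a', b * b', c * c', ?_⟩
        rw [dd_mul ρ hV, dd_mul ρ hV, dd_mul ρ hV, map_mul (ρ x), map_mul (ρ (x * y))]
        exact (six hV _ _ _ _ _ _).symm
      inv_mem' := by
        rintro _ ⟨a, b, c, rfl⟩
        refine ⟨a⁻¹, b⁻¹, c⁻¹, ?_⟩
        rw [dd_inv ρ hV, dd_inv ρ hV, dd_inv ρ hV, map_inv, map_inv, mul_inv_rev, mul_inv_rev,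
          hV ((ρ x) (dd ρ y b))⁻¹ (dd ρ x a)⁻¹]
        exact hV _ _ }
  have hmul : ∀ g h : X, (∀ v, dd ρ g v ∈ T) → (∀ v, dd ρ h v ∈ T) → ∀ v, dd ρ (g * h) v ∈ T := by
    intro g h hg hh v
    have h1 : dd ρ (g * h) v = dd ρ h v * dd ρ g (ρ h v) := by
      unfold dd
      rw [map_mul, MulAut.mul_apply]
      group
    rw [h1]
    exact T.mul_mem (hh v) (hg _)
  have hx : ∀ v, dd ρ x v ∈ T := fun v =>
    ⟨v, 1, 1, by rw [dd_one, dd_one, map_one, map_one, mul_one, mul_one]⟩
  have key : ∀ (g : X) (w : V), (∀ v, dd ρ g v ∈ T) → ρ g w ∈ T → w ∈ T := by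
    intro g w hg hw
    have h1 : w = dd ρ g w * ρ g w := by
      unfold dd
      rw [inv_mul_cancel_right]
    rw [h1]
    exact T.mul_mem (hg w) hw
  have hy : ∀ v, dd ρ y v ∈ T := by
    intro v
    refine key x _ hx ⟨1, v, 1, ?_⟩
    rw [dd_one, dd_one, map_one, mul_one, one_mul]
  have hz : ∀ v, dd ρ z v ∈ T := by
    intro v
    refine key (x * y) _ (hmul x y hx hy) ⟨1, 1, v, ?_⟩
    rw [dd_one, dd_one, map_one, one_mul, one_mul]
  have hall : ∀ (g : X) (v : V), dd ρ g v ∈ T := by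
    intro g
    have hg : g ∈ Subgroup.closure ({x, y, z} : Set X) := by rw [hgen]; trivial
    induction hg using Subgroup.closure_induction with
    | mem g hg =>
      rcases hg with rfl | rfl | rfl
      · exact hx
      · exact hy
      · exact hz
    | one =>
      intro v
      have h1 : dd ρ 1 v = 1 := by
        unfold dd
        rw [map_one, MulAut.one_apply, mul_inv_cancel]
      rw [h1]
      exact T.one_mem
    | mul g h _ _ hg hh => exact hmul g h hg hh
    | inv g _ hg =>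
      intro v
      have h1 : dd ρ g⁻¹ v = (dd ρ g (ρ g⁻¹ v))⁻¹ := by
        unfold dd
        rw [mul_inv_rev, inv_inv, map_inv, MulAut.apply_inv_self]
      rw [h1]
      exact T.inv_mem (hg _)
  have h1 : v ∈ T := by rw [hT T hall]; trivial
  exact h1

end Core

section Elements

variable {X : Type u} [Group X] [Finite X] {s : ℕ}

/-- elements of order prime to `s` lift to elements of order prime to `s` -/
theorem exists_lift_elt (hs : s.Prime) {Q : Type*} [Group Q] (f : X →* Q) (hf : Function.Surjective f) {q : Q}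
    (hq : ¬ s ∣ orderOf q) : ∃ g : X, f g = q ∧ ¬ s ∣ orderOf g := by
  obtain ⟨g0, rfl⟩ := hf q
  have h0 : orderOf g0 ≠ 0 := (orderOf_pos g0).ne'
  obtain ⟨m, hm, hm'⟩ := Nat.exists_eq_pow_mul_and_not_dvd h0 s hs.ne_one
  obtain ⟨a, ha, ha'⟩ : ∃ a, ¬ s ∣ a ∧ orderOf g0 = s ^ m * a := ⟨hm, hm'⟩
  have hcop : Nat.Coprime (s ^ m) a := Nat.Coprime.pow_left m ((hs.coprime_iff_not_dvd).2 ha)
  obtain ⟨k, hk1, hk2⟩ := Nat.chineseRemainder hcop 0 1
  have hdiv : orderOf (f g0) ∣ a := by
    have h1 : orderOf (f g0) ∣ s ^ m * a := ha' ▸ orderOf_map_dvd f g0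
    have h2 : Nat.Coprime (orderOf (f g0)) (s ^ m) :=
      Nat.Coprime.pow_right m (Nat.coprime_comm.1 ((hs.coprime_iff_not_dvd).2 hq))
    exact h2.dvd_of_dvd_mul_left h1
  refine ⟨g0 ^ k, ?_, fun hd => ha ?_⟩
  · rw [map_pow]
    have h1 : k ≡ 1 [MOD orderOf (f g0)] := hk2.of_dvd hdiv
    conv_rhs => rw [← pow_one (f g0)]
    exact pow_eq_pow_iff_modEq.2 h1
  · have h1 : (g0 ^ k) ^ a = 1 := by
      rw [← pow_mul]
      apply orderOf_dvd_iff_pow_eq_one.1
      rw [ha']
      exact Nat.mul_dvd_mul ((Nat.modEq_zero_iff_dvd).1 hk1) dvd_rfl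
    exact hd.trans (orderOf_dvd_of_pow_eq_one h1)

end Elements

section Main

variable {X : Type u} [Group X] [Finite X] {s : ℕ} [hs : Fact s.Prime]

/-- normal subgroups of a perfect group -/
theorem le_center_of_comm (hX : commutator X = ⊤) {V : Subgroup X} (h : ⁅(⊤ : Subgroup X), V⁆ ≤ Subgroup.center X) :
    V ≤ Subgroup.center X := by
  have h1 : ⁅⁅(⊤ : Subgroup X), V⁆, (⊤ : Subgroup X)⁆ = ⊥ := by
    rw [Subgroup.commutator_eq_bot_iff_le_centralizer]
    rwa [Subgroup.coe_top, Subgroup.centralizer_univ]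
  have h2 : ⁅⁅V, (⊤ : Subgroup X)⁆, (⊤ : Subgroup X)⁆ = ⊥ := by
    rw [Subgroup.commutator_comm V]
    exact h1
  have h3 := Subgroup.commutator_commutator_eq_bot_of_rotate h1 h2
  have h4 : ⁅(⊤ : Subgroup X), ⊤⁆ = ⊤ := hX
  rw [h4, Subgroup.commutator_comm, Subgroup.commutator_eq_bot_iff_le_centralizer, Subgroup.coe_top,
    Subgroup.centralizer_univ] at h3
  exact h3

/-- Structure below a noncentral normal `s`-subgroup `M` of a perfect group. -/
theorem exists_V (hs2 : s ≠ 2) (hX : commutator X = ⊤) (M : Subgroup X) [hM : M.Normal] (hMs : IsPGroup s M)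
    (hMc : ¬ M ≤ Subgroup.center X) :
    ∃ V : Subgroup X, V.Normal ∧ V ≤ M ∧ V ≠ ⊥ ∧ V ≤ ⁅(⊤ : Subgroup X), V⁆ ∧
      (∀ v ∈ V, v ^ s = 1) ∧ (∀ u ∈ V, ∀ v ∈ V, ⁅u, v⁆ ∈ Subgroup.center X) ∧
      (∀ R : Subgroup X, R.Normal → V ⊓ Subgroup.center X ≤ R → R ≤ V →
        R = V ⊓ Subgroup.center X ∨ R = V) := by
  classical
  set Z : Subgroup X := M ⊓ Subgroup.center X with hZ
  have hZn : Z.Normal := inferInstance
  have hZM : Z ≤ M := inf_le_left
  have hZc : Z ≤ Subgroup.center X := inf_le_right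
  let f : X →* X ⧸ Z := QuotientGroup.mk' Z
  have hf : ∀ g : X, f g = 1 ↔ g ∈ Z := fun g => QuotientGroup.eq_one_iff g
  let Mb : Subgroup (X ⧸ Z) := M.map f
  have hMbn : Mb.Normal := hM.map f (QuotientGroup.mk'_surjective Z)
  let M2 : Subgroup X := M ⊓ (Subgroup.centralizer (Mb : Set (X ⧸ Z))).comap f
  have hM2n : M2.Normal := inferInstance
  have hZM2 : Z ≤ M2 := by
    intro g hg
    refine ⟨hZM hg, ?_⟩
    show f g ∈ Subgroup.centralizer (Mb : Set (X ⧸ Z))
    rw [(hf g).2 hg]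
    exact Subgroup.one_mem _
  -- strict
  have hlt : Z < M2 := by
    refine lt_of_le_of_ne hZM2 fun heq => ?_
    have hnt : Nontrivial Mb := by
      rw [Subgroup.nontrivial_iff_exists_ne_one]
      by_contra hcon
      push Not at hcon
      apply hMc
      intro g hg
      exact hZc ((hf g).1 (hcon (f g) (Subgroup.mem_map_of_mem f hg)))
    have hMbs : IsPGroup s Mb := hMs.map f
    have hc := IsPGroup.center_nontrivial hMbs
    obtain ⟨⟨⟨c, hcM⟩, hcc⟩, hc1⟩ := exists_ne (1 : Subgroup.center Mb)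
    obtain ⟨m, hm, hmc⟩ := hcM
    have h1 : m ∈ M2 := by
      refine ⟨hm, ?_⟩
      show f m ∈ Subgroup.centralizer (Mb : Set (X ⧸ Z))
      rw [Subgroup.mem_centralizer_iff]
      intro b hb
      have h2 := Subgroup.mem_center_iff.1 hcc ⟨b, hb⟩
      have h3 := congrArg Subtype.val h2
      rw [hmc]
      exact h3
    rw [← heq] at h1
    apply hc1
    apply Subtype.ext
    apply Subtype.ext
    show c = 1
    rw [← hmc]
    exact (hf m).2 h1
  -- a minimal one
  obtain ⟨W, hWmin⟩ := (Set.toFinite {V : Subgroup X | V.Normal ∧ Z < V ∧ V ≤ M2}).exists_minimal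
    ⟨M2, hM2n, hlt, le_rfl⟩
  obtain ⟨hWn, hZW, hWM2⟩ := hWmin.1
  have hmin : ∀ R : Subgroup X, R.Normal → Z < R → R ≤ W → W ≤ R := fun R hR1 hR2 hR3 =>
    hWmin.2 ⟨hR1, hR2, hR3.trans hWM2⟩ hR3
  have hWM : W ≤ M := hWM2.trans inf_le_left
  have hcommZ : ∀ m ∈ M, ∀ w ∈ W, ⁅m, w⁆ ∈ Z := by
    intro m hm w hw
    have h1 : f w ∈ Subgroup.centralizer (Mb : Set (X ⧸ Z)) := (hWM2 hw).2
    rw [Subgroup.mem_centralizer_iff] at h1
    have h2 := h1 (f m) (Subgroup.mem_map_of_mem f hm)
    rw [← hf, map_commutatorElement]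
    exact commutatorElement_eq_one_iff_mul_comm.2 h2
  -- `s`-th powers
  have hpow : ∀ w ∈ W, w ^ s ∈ Z := by
    let Om : Subgroup X :=
      { carrier := {w | w ∈ W ∧ w ^ s ∈ Z}
        one_mem' := ⟨W.one_mem, by rw [one_pow]; exact Z.one_mem⟩
        mul_mem' := by
          rintro a b ⟨ha, ha'⟩ ⟨hb, hb'⟩
          refine ⟨W.mul_mem ha hb, ?_⟩
          rw [← hf] at ha' hb' ⊢
          have h1 : Commute (f a) (f b) := by
            have h2 := hcommZ a (hWM ha) b hb
            rw [← hf, map_commutatorElement] at h2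
            exact commutatorElement_eq_one_iff_mul_comm.1 h2
          rw [map_pow, map_mul, h1.mul_pow, ← map_pow, ← map_pow, ha', hb', mul_one]
        inv_mem' := by
          rintro a ⟨ha, ha'⟩
          exact ⟨W.inv_mem ha, by rw [inv_pow]; exact Z.inv_mem ha'⟩ }
    have hOmn : Om.Normal := by
      constructor
      rintro w ⟨hw, hw'⟩ g
      refine ⟨hWn.conj_mem w hw g, ?_⟩
      rw [conj_pow]
      exact hZn.conj_mem _ hw' g
    have hZOm : Z ≤ Om := fun g hg => ⟨hZW.le hg, Z.pow_mem hg s⟩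
    have hOmW : Om ≤ W := fun g hg => hg.1
    have hlt' : Z < Om := by
      refine lt_of_le_of_ne hZOm fun heq => ?_
      obtain ⟨w, hw, hwZ⟩ := SetLike.exists_of_lt hZW
      obtain ⟨k, hk⟩ := hMs ⟨w, hWM hw⟩
      have hk' : w ^ s ^ k = 1 := congrArg Subtype.val hk
      have hex : ∃ j, w ^ s ^ j ∈ Z := ⟨k, by rw [hk']; exact Z.one_mem⟩
      obtain ⟨j, hj, hjmin⟩ : ∃ j, w ^ s ^ j ∈ Z ∧ ∀ i < j, w ^ s ^ i ∉ Z :=
        ⟨Nat.find hex, Nat.find_spec hex, fun i hi => Nat.find_min hex hi⟩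
      rcases Nat.eq_zero_or_pos j with rfl | hj0
      · rw [pow_zero, pow_one] at hj
        exact hwZ hj
      · apply hjmin (j - 1) (by omega)
        rw [heq]
        refine ⟨W.pow_mem hw _, ?_⟩
        rw [← pow_mul, ← pow_succ, Nat.sub_add_cancel hj0]
        exact hj
    intro w hw
    exact (hmin Om hOmn hlt' hOmW hw).2
  -- the commutator
  set V : Subgroup X := ⁅(⊤ : Subgroup X), W⁆ with hV
  have hVn : V.Normal := inferInstance
  have hVW : V ≤ W := Subgroup.commutator_le_right ⊤ W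
  have hVZ : ¬ V ≤ Z := by
    intro h
    have h1 : W ≤ Subgroup.center X := le_center_of_comm hX (h.trans hZc)
    exact absurd (le_inf hWM h1) (not_le_of_gt hZW)
  have hsup : W ≤ V ⊔ Z := by
    refine hmin (V ⊔ Z) inferInstance ?_ (sup_le hVW hZW.le)
    refine lt_of_le_of_ne le_sup_right fun heq => hVZ ?_
    rw [heq]
    exact le_sup_left
  have hcz : ∀ (g a c : X), c ∈ Subgroup.center X → ⁅g, a * c⁆ = ⁅g, a⁆ := by
    intro g a c hc
    have h1 := Subgroup.mem_center_iff.1 hc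
    rw [commutatorElement_def, commutatorElement_def, mul_inv_rev]
    have h2 : g * (a * c) * g⁻¹ * (c⁻¹ * a⁻¹) = g * a * (c * g⁻¹) * c⁻¹ * a⁻¹ := by group
    rw [h2, ← h1 g⁻¹]
    group
  have hVV : V ≤ ⁅(⊤ : Subgroup X), V⁆ := by
    rw [hV, Subgroup.commutator_le]
    intro g _ w hw
    obtain ⟨a, ha, c, hc, rfl⟩ := Subgroup.mem_sup_of_normal_right.1 (hsup hw)
    rw [hcz g a c (hZc hc)]
    exact Subgroup.commutator_mem_commutator trivial ha
  have hVM : V ≤ M := hVW.trans hWM
  refine ⟨V, hVn, hVM, ?_, hVV, ?_, ?_, ?_⟩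
  · intro h
    exact hVZ (by rw [h]; exact bot_le)
  · -- exponent `s`
    have hprod : ∀ a ∈ W, ∀ b ∈ W, (a * b) ^ s = a ^ s * b ^ s := by
      intro a ha b hb
      have hcc : ⁅b⁻¹, a⁻¹⁆ ∈ Subgroup.center X := hZc (hcommZ _ (M.inv_mem (hWM hb)) _ (W.inv_mem ha))
      have hcc' := Subgroup.mem_center_iff.1 hcc
      refine Cfsg.Agent.Lib.NormalElementary.mul_pow_prime_of_swap (c := ⁅b⁻¹, a⁻¹⁆) hs2 ?_
        (hcc' a).symm (hcc' b).symm ?_
      · rw [commutatorElement_def]
        group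
      · -- the commutator has order dividing `s`
        have h1 : ∀ n : ℕ, ⁅b⁻¹, a⁻¹⁆ ^ n = b⁻¹ * (a⁻¹) ^ n * b * ((a⁻¹) ^ n)⁻¹ := by
          intro n
          have h2 : (b⁻¹ * a⁻¹ * b) ^ n = (⁅b⁻¹, a⁻¹⁆ * a⁻¹) ^ n := by
            congr 1
            rw [commutatorElement_def]
            group
          have h3 : Commute ⁅b⁻¹, a⁻¹⁆ a⁻¹ := (hcc' a⁻¹).symm
          rw [h3.mul_pow] at h2
          have h4 : (b⁻¹ * a⁻¹ * b) ^ n = b⁻¹ * (a⁻¹) ^ n * b := by
            have := conj_pow (i := n) (a := b⁻¹) (b := a⁻¹)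
            rwa [inv_inv] at this
          rw [h4] at h2
          exact eq_mul_inv_of_mul_eq h2.symm
        rw [h1 s]
        have h5 : (a⁻¹) ^ s ∈ Subgroup.center X := by
          rw [inv_pow]
          exact Subgroup.inv_mem _ (hZc (hpow a ha))
        rw [Subgroup.mem_center_iff.1 h5 b⁻¹]
        group
    let E : Subgroup X :=
      { carrier := {w | w ∈ W ∧ w ^ s = 1}
        one_mem' := ⟨W.one_mem, one_pow s⟩
        mul_mem' := by
          rintro a b ⟨ha, ha'⟩ ⟨hb, hb'⟩
          exact ⟨W.mul_mem ha hb, by rw [hprod a ha b hb, ha', hb', mul_one]⟩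
        inv_mem' := by
          rintro a ⟨ha, ha'⟩
          exact ⟨W.inv_mem ha, by rw [inv_pow, ha', inv_one]⟩ }
    have hVE : V ≤ E := by
      rw [hV, Subgroup.commutator_le]
      intro g _ w hw
      have h1 : g * w * g⁻¹ ∈ W := hWn.conj_mem w hw g
      refine ⟨?_, ?_⟩
      · rw [commutatorElement_def]
        exact W.mul_mem h1 (W.inv_mem hw)
      · rw [commutatorElement_def, hprod _ h1 _ (W.inv_mem hw), conj_pow, inv_pow,
          Subgroup.mem_center_iff.1 (hZc (hpow w hw)) g, mul_inv_cancel_right, mul_inv_cancel]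
    intro v hv
    exact (hVE hv).2
  · intro u hu v hv
    exact hZc (hcommZ u (hVM hu) v (hVW hv))
  · intro R hRn hR1 hR2
    by_cases h1 : R ≤ Z
    · left
      exact le_antisymm (le_inf hR2 (h1.trans hZc)) hR1
    · right
      refine le_antisymm hR2 ?_
      have h2 : W ≤ R ⊔ Z := by
        refine hmin (R ⊔ Z) inferInstance ?_ (sup_le (hR2.trans hVW) hZW.le)
        refine lt_of_le_of_ne le_sup_right fun heq => h1 ?_
        rw [heq]
        exact le_sup_left
      rw [hV, Subgroup.commutator_le]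
      intro g _ w hw
      obtain ⟨a, ha, c, hc, rfl⟩ := Subgroup.mem_sup_of_normal_right.1 (h2 hw)
      rw [hcz g a c (hZc hc), commutatorElement_def]
      exact R.mul_mem (hRn.conj_mem a ha g) (R.inv_mem ha)

open Cfsg.Agent.H562.PQR (CLift)
open Cfsg.Agent.H80.Fpf (IsCover)

/-- a subgroup that covers the quotient modulo a subgroup of the Frattini subgroup -/
theorem eq_top_of_map {S : Type v} [Group S] (π : X →* S) (hfr : π.ker ≤ frattini X) {H : Subgroup X}
    (hH : H.map π = ⊤) : H = ⊤ := by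
  apply frattini_nongenerating
  rw [eq_top_iff]
  intro g _
  have h1 : π g ∈ H.map π := by rw [hH]; trivial
  obtain ⟨h, hh, hg⟩ := h1
  have h2 : h⁻¹ * g ∈ π.ker := by
    rw [MonoidHom.mem_ker, map_mul, map_inv, hg, inv_mul_cancel]
  have h3 : g = h * (h⁻¹ * g) := (mul_inv_cancel_left h g).symm
  rw [h3]
  exact Subgroup.mul_mem_sup hh (hfr h2)

theorem lift_aux (hs2 : s ≠ 2) {S : Type v} [Group S] (hS : commutator S = ⊤) {x y z : S} (h : x * y * z = 1)
    (hgen : Subgroup.closure ({x, y, z} : Set S) = ⊤) (hx : ¬ s ∣ orderOf x) (hy : ¬ s ∣ orderOf y)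
    (hz : ¬ s ∣ orderOf z) (hc : CLift s x y z) (n : ℕ) :
    ∀ (X : Type u) [Group X] [Finite X] (π : X →* S), Nat.card X ≤ n → Function.Surjective π →
      IsPGroup s π.ker → π.ker ≤ frattini X → ∃ x' y' z' : X, π x' = x ∧ π y' = y ∧ π z' = z ∧
        x' * y' * z' = 1 ∧ ¬ s ∣ orderOf x' ∧ ¬ s ∣ orderOf y' ∧ ¬ s ∣ orderOf z' := by
  induction n with
  | zero =>
    intro X _ _ π hn
    have := Nat.card_pos (α := X)
    omega
  | succ n ih =>
    intro X _ _ π hn hπ hk hfr
    have hX : commutator X = ⊤ := by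
      apply eq_top_of_map π hfr
      rw [commutator_def, Subgroup.map_commutator, Subgroup.map_top_of_surjective π hπ]
      exact hS
    by_cases hcen : π.ker ≤ Subgroup.center X
    · -- the central case
      obtain ⟨Γ, instΓ, ⟨e⟩⟩ := Cfsg.Agent.Lib.MinNormal.exists_type_zero_model X
      have hfin : Finite Γ := Finite.of_equiv X e.symm.toEquiv
      have hcov : IsCover (π.comp e.toMonoidHom) := by
        refine ⟨hπ.comp e.surjective, ?_, ?_⟩
        · intro g hg
          have h1 : e g ∈ π.ker := hg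
          have h2 := Subgroup.mem_center_iff.1 (hcen h1)
          rw [Subgroup.mem_center_iff]
          intro k
          apply e.injective
          rw [map_mul, map_mul]
          exact h2 (e k)
        · have h1 : (commutator Γ).map e.toMonoidHom = ⊤ := by
            rw [commutator_def, Subgroup.map_commutator,
              Subgroup.map_top_of_surjective e.toMonoidHom e.surjective]
            exact hX
          rw [eq_top_iff]
          intro g _
          have h2 : e g ∈ (commutator Γ).map e.toMonoidHom := by rw [h1]; trivial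
          obtain ⟨k, hk1, hk2⟩ := h2
          have h3 : k = g := e.injective hk2
          rwa [← h3]
      have hkΓ : IsPGroup s (π.comp e.toMonoidHom).ker := by
        rintro ⟨g, hg⟩
        obtain ⟨k, hk⟩ := hk ⟨e g, hg⟩
        refine ⟨k, Subtype.ext (e.injective ?_)⟩
        have h1 := congrArg Subtype.val hk
        have h2 : (e g) ^ s ^ k = 1 := h1
        show e (g ^ s ^ k) = e 1
        rw [map_pow, h2, map_one]
      obtain ⟨x', y', z', h1, h2, h3, h4, h5, h6, h7⟩ := hc Γ (π.comp e.toMonoidHom) hcov hkΓ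
      refine ⟨e x', e y', e z', h1, h2, h3, ?_, ?_, ?_, ?_⟩
      · rw [← map_mul, ← map_mul, h4, map_one]
      · rwa [e.orderOf_eq]
      · rwa [e.orderOf_eq]
      · rwa [e.orderOf_eq]
    · obtain ⟨V, hVn, hVM, hV1, hVV, hexp, hcc, hirr⟩ := exists_V hs2 hX π.ker hk hcen
      -- `V` is abelian
      have hab : ∀ u ∈ V, ∀ v ∈ V, u * v = v * u := by
        by_contra hcon
        push Not at hcon
        obtain ⟨u, hu, v, hv, huv⟩ := hcon
        exact not_le_frattini hs2 V hexp hcc hirr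
          ⟨u, hu, v, hv, fun h1 => huv (commutatorElement_eq_one_iff_mul_comm.1 h1)⟩ (hVM.trans hfr)
      -- the quotient
      let f : X →* X ⧸ V := QuotientGroup.mk' V
      have hfs : Function.Surjective f := QuotientGroup.mk'_surjective V
      let πb : X ⧸ V →* S := QuotientGroup.lift V π (fun v hv => hVM hv)
      have hπb : ∀ g : X, πb (f g) = π g := fun g => rfl
      have hcard : Nat.card (X ⧸ V) ≤ n := by
        have h1 := V.card_mul_index
        have h2 : 1 < Nat.card V := by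
          rw [Nat.one_lt_iff_ne_zero_and_ne_one]
          exact ⟨Nat.card_pos.ne', fun h3 => hV1 (Subgroup.card_eq_one.1 h3)⟩
        have h3 : Nat.card (X ⧸ V) = V.index := rfl
        have h4 : 0 < V.index := Nat.pos_of_ne_zero Subgroup.index_ne_zero_of_finite
        rw [h3]
        nlinarith
      have hks : IsPGroup s πb.ker := by
        rintro ⟨q, hq⟩
        obtain ⟨g, rfl⟩ := hfs q
        obtain ⟨k, hk⟩ := hk ⟨g, hq⟩
        have h1 : g ^ s ^ k = 1 := congrArg Subtype.val hk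
        refine ⟨k, Subtype.ext ?_⟩
        show (f g) ^ s ^ k = 1
        rw [← map_pow, h1, map_one]
      have hkfr : πb.ker ≤ frattini (X ⧸ V) := by
        intro q hq
        obtain ⟨g, rfl⟩ := hfs q
        exact frattini_le_comap_frattini_of_surjective hfs (hfr hq)
      obtain ⟨xb, yb, zb, h1, h2, h3, h4, h5, h6, h7⟩ := ih (X ⧸ V) πb hcard
        (fun t => by obtain ⟨g, hg⟩ := hπ t; exact ⟨f g, hg⟩) hks hkfr
      obtain ⟨x', hx1, hx2⟩ := exists_lift_elt hs.out f hfs h5
      obtain ⟨y', hy1, hy2⟩ := exists_lift_elt hs.out f hfs h6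
      obtain ⟨z', hz1, hz2⟩ := exists_lift_elt hs.out f hfs h7
      have hpx : π x' = x := by rw [← hπb, hx1, h1]
      have hpy : π y' = y := by rw [← hπb, hy1, h2]
      have hpz : π z' = z := by rw [← hπb, hz1, h3]
      have hprod : x' * y' * z' ∈ V := by
        rw [← QuotientGroup.eq_one_iff]
        show f (x' * y' * z') = 1
        rw [map_mul, map_mul, hx1, hy1, hz1, h4]
      have hgen' : Subgroup.closure ({x', y', z'} : Set X) = ⊤ := by
        apply eq_top_of_map π hfr
        rw [MonoidHom.map_closure, Set.image_insert_eq, Set.image_insert_eq, Set.image_singleton, hpx, hpy, hpz,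
          hgen]
      have hVc : ∀ a b : V, a * b = b * a := fun a b => Subtype.ext (hab a a.2 b b.2)
      obtain ⟨a, b, c, habc⟩ := core_comm (MulAut.conjNormal : X →* MulAut V) hVc hgen' (by
        intro T hT
        rw [eq_top_iff]
        intro v _
        have h8 : V ≤ T.map V.subtype := by
          refine hVV.trans ?_
          rw [Subgroup.commutator_le]
          intro g _ w hw
          refine ⟨(dd (MulAut.conjNormal : X →* MulAut V) g ⟨w, hw⟩)⁻¹, T.inv_mem (hT g _), ?_⟩
          show (((dd (MulAut.conjNormal : X →* MulAut V) g ⟨w, hw⟩)⁻¹ : V) : X) = ⁅g, w⁆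
          unfold dd
          rw [mul_inv_rev, inv_inv, Subgroup.coe_mul, MulAut.conjNormal_apply, Subgroup.coe_inv,
            commutatorElement_def]
        obtain ⟨t, ht, htv⟩ := h8 v.2
        have h9 : t = v := Subtype.ext htv
        exact h9 ▸ ht) ⟨(x' * y' * z')⁻¹, V.inv_mem hprod⟩
      have hkey := congrArg Subtype.val habc
      have hdd : ∀ (g : X) (a : V), ((dd (MulAut.conjNormal : X →* MulAut V) g a : V) : X) =
          a * (g * (a : X) * g⁻¹)⁻¹ := by
        intro g a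
        unfold dd
        rw [Subgroup.coe_mul, Subgroup.coe_inv, MulAut.conjNormal_apply]
      rw [Subgroup.coe_mul, Subgroup.coe_mul, MulAut.conjNormal_apply, MulAut.conjNormal_apply, hdd, hdd, hdd] at hkey
      have hord : ∀ (g a : X), orderOf (a * g * a⁻¹) = orderOf g := fun g a => (MulAut.conj a).orderOf_eq g
      have hpv : ∀ (g : X) (a : V), π (a * g * (a : X)⁻¹) = π g := by
        intro g a
        have h8 : π (a : X) = 1 := hVM a.2
        rw [map_mul, map_mul, map_inv, h8, inv_one, mul_one, one_mul]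
      refine ⟨a * x' * (a : X)⁻¹, b * y' * (b : X)⁻¹, c * z' * (c : X)⁻¹, ?_, ?_, ?_, ?_, ?_, ?_, ?_⟩
      · rw [hpv, hpx]
      · rw [hpv, hpy]
      · rw [hpv, hpz]
      · have h8 : a * x' * (a : X)⁻¹ * (b * y' * (b : X)⁻¹) * (c * z' * (c : X)⁻¹) =
            (a * (x' * (a : X) * x'⁻¹)⁻¹ * (x' * (b * (y' * (b : X) * y'⁻¹)⁻¹) * x'⁻¹) *
              (x' * y' * (c * (z' * (c : X) * z'⁻¹)⁻¹) * (x' * y')⁻¹)) * (x' * y' * z') := by
          group
        rw [h8, ← hkey]
        exact inv_mul_cancel _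
      · rwa [hord]
      · rwa [hord]
      · rwa [hord]

/-- **Frattini lifting.** -/
theorem lift_of_clift {s : ℕ} (hs : s.Prime) (hs2 : s ≠ 2) {S : Type v} [Group S] [Finite S]
    (hS : commutator S = ⊤) {X : Type u} [Group X] [Finite X] (π : X →* S) (hπ : Function.Surjective π)
    (hk : IsPGroup s π.ker) (hfr : π.ker ≤ frattini X) {x y z : S} (h : x * y * z = 1)
    (hgen : Subgroup.closure {x, y, z} = ⊤) (hx : ¬ s ∣ orderOf x) (hy : ¬ s ∣ orderOf y)
    (hz : ¬ s ∣ orderOf z) (hc : CLift s x y z) :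
    ∃ x' y' z' : X, π x' = x ∧ π y' = y ∧ π z' = z ∧ x' * y' * z' = 1 ∧
      ¬ s ∣ orderOf x' ∧ ¬ s ∣ orderOf y' ∧ ¬ s ∣ orderOf z' := by
  have : Fact s.Prime := ⟨hs⟩
  exact lift_aux hs2 hS h hgen hx hy hz hc _ X π le_rfl hπ hk hfr

end Main

end Cfsg.Agent.H94.Lift
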